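import Mathlib
import Cfsg.Agent.SLE.Lead

/-! Coefficients along a filtration whose levels may contain several roots. -/

set_option autoImplicit false
set_option linter.unusedSectionVars false

namespace Cfsg.Agent.TwE.RigA

open Cfsg.Lie Cfsg.Agent.Chev Cfsg.Agent.SLE Subgroup
open scoped commutatorElement

variable {D : ChevalleyDatum} {T : RootTable D} {F : Type*} [Field F] {G : Type*} [Group G]
  {x : ℕ → F → G} {S : Set ℕ} {f : (Fin D.rank → ℤ) →+ ℤ}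

theorem comb_gt (hf : ∀ r ∈ S, 0 < f (T.vec r)) {r s k i j : ℕ} (hr : r ∈ S) (hs : s ∈ S)
    (hi : 0 < i) (hj : 0 < j) (e : T.vec k = i • T.vec r + j • T.vec s) :
    f (T.vec s) < f (T.vec k) := by
  rw [e, map_add, map_nsmul, map_nsmul, nsmul_eq_mul, nsmul_eq_mul]
  have h1 := hf r hr
  have h5 := hf s hs
  have h3 : (1 : ℤ) ≤ i := by exact_mod_cast hi
  have h4 : (1 : ℤ) ≤ j := by exact_mod_cast hj
  nlinarith

/-- sets between two steps of the filtration -/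
structure Bt (T : RootTable D) (S : Set ℕ) (f : (Fin D.rank → ℤ) →+ ℤ) (m : ℤ) (S' : Set ℕ) :
    Prop where
  up : ∀ s ∈ S', s ∈ S ∧ m ≤ f (T.vec s)
  lo : ∀ s ∈ S, m < f (T.vec s) → s ∈ S'

theorem Bt.closed (hS : T.Nil S) (hf : ∀ r ∈ S, 0 < f (T.vec r)) {m : ℤ} {S' : Set ℕ}
    (h : Bt T S f m S') : T.Closed S' := fun r hr s hs k hk i j hi hj e =>
  h.lo k (hS.closed r (h.up r hr).1 s (h.up s hs).1 k hk i j hi hj e)
    (lt_of_le_of_lt (h.up s hs).2 (comb_gt hf (h.up r hr).1 (h.up s hs).1 hi hj e))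

theorem Bt.nrm (h0 : IsSt0 D x) (hS : T.Nil S) (hf : ∀ r ∈ S, 0 < f (T.vec r)) {m : ℤ}
    {S' : Set ℕ} (h : Bt T S f m S') : XS x S ≤ normalizer (XS x S' : Set G) :=
  h0.XS_le_normalizer T hS.lt (fun s hs => hS.lt s (h.up s hs).1)
    (fun _ hr s hs => hS.ne_neg hr (h.up s hs).1) fun r hr s hs k hk i j hi hj e =>
      h.lo k (hS.closed r hr s (h.up s hs).1 k hk i j hi hj e)
        (lt_of_le_of_lt (h.up s hs).2 (comb_gt hf hr (h.up s hs).1 hi hj e))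

/-- the level of `k` and above, without `k` -/
def Nk (T : RootTable D) (S : Set ℕ) (f : (Fin D.rank → ℤ) →+ ℤ) (k : ℕ) : Set ℕ :=
  {r | r ∈ S ∧ f (T.vec k) ≤ f (T.vec r) ∧ r ≠ k}

theorem bt_Nk (k : ℕ) : Bt T S f (f (T.vec k)) (Nk T S f k) :=
  ⟨fun _ hs => ⟨hs.1, hs.2.1⟩, fun s hs h => ⟨hs, h.le, fun e => by rw [e] at h; omega⟩⟩

theorem filt_le_Nk (k : ℕ) :
    XS x {r | r ∈ S ∧ f (T.vec k) + 1 ≤ f (T.vec r)} ≤ XS x (Nk T S f k) :=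
  XS_mono fun r hr => (bt_Nk k).lo r hr.1 hr.2

variable (h0 : IsSt0 D x) (hS : T.Nil S) (hf : ∀ r ∈ S, 0 < f (T.vec r))
include h0 hS hf

theorem nrmN (k : ℕ) : XS x S ≤ normalizer (XS x (Nk T S f k) : Set G) := (bt_Nk k).nrm h0 hS hf

theorem ndN (hn : IsND x T) {k : ℕ} (hk : k ∈ S) {a : F} (e : x k a ∈ XS x (Nk T S f k)) :
    a = 0 := by
  have b : Bt T S f (f (T.vec k)) {r | r = k ∨ r ∈ S ∧ f (T.vec k) < f (T.vec r)} :=
    ⟨by
      rintro s (rfl | hs)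
      · exact ⟨hk, le_rfl⟩
      · exact ⟨hs.1, hs.2.le⟩, fun s hs h => Or.inr ⟨hs, h⟩⟩
  have h1 := hn.XS_inf h0 hS (fun s hs => (b.up s hs).1) (fun s hs => ((bt_Nk (f := f) k).up s hs).1)
    (b.closed hS hf) ((bt_Nk k).closed hS hf)
  have h2 := h1.le (mem_inf.2 ⟨mem_XS (S := {r | r = k ∨ r ∈ S ∧ f (T.vec k) < f (T.vec r)})
    (Or.inl rfl) a, e⟩)
  refine hn.nd f k (hS.lt k hk) (hf k hk) a (XS_mono ?_ h2)
  rintro r ⟨h3 | h3, h4⟩
  · exact absurd h3 h4.2.2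
  · exact ⟨hS.lt r h3.1, h3.2⟩

theorem decN {k : ℕ} (hk : k ∈ S) {u : G}
    (hu : u ∈ XS x {r | r ∈ S ∧ f (T.vec k) ≤ f (T.vec r)}) :
    ∃ a, (x k a)⁻¹ * u ∈ XS x (Nk T S f k) := by
  have e : {r | r ∈ S ∧ f (T.vec k) ≤ f (T.vec r)} = {k} ∪ Nk T S f k := by
    ext r
    constructor
    · intro h
      by_cases e : r = k
      · exact Or.inl e
      · exact Or.inr ⟨h.1, h.2, e⟩
    · rintro (h | h)
      · obtain rfl : r = k := h
        exact ⟨hk, le_rfl⟩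
      · exact ⟨h.1, h.2.1⟩
  have b : Bt T S f (f (T.vec k)) {r | r ∈ S ∧ f (T.vec k) ≤ f (T.vec r)} :=
    ⟨fun _ h => h, fun _ h h' => ⟨h, h'.le⟩⟩
  have hN := hS.mono (fun s hs => (b.up s hs).1) (b.closed hS hf)
  rw [e] at hu hN
  obtain ⟨a, ha, n, hn, rfl⟩ := h0.exists_mul_of_mem_union hN hu
  obtain ⟨t, rfl⟩ := (h0.mem_XS_singleton (T.lt_iff.2 (hS.lt k hk))).1 ha
  exact ⟨t, by simpa using hn⟩

theorem conjN {k : ℕ} (hk : k ∈ S) {u : G} (hu : u ∈ XS x S) (a : F) :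
    (x k a)⁻¹ * (u⁻¹ * x k a * u) ∈ XS x (Nk T S f k) := by
  simpa [mul_assoc] using filt_le_Nk k (h0.comm_mem_filt hS hf hk le_rfl a hu)

/-- conjugation does not change an element of level `m` modulo level `m + 1` -/
theorem conjF {m : ℤ} {p u : G} (hp : p ∈ XS x {r | r ∈ S ∧ m ≤ f (T.vec r)}) (hu : u ∈ XS x S) :
    p⁻¹ * (u * p * u⁻¹) ∈ XS x {r | r ∈ S ∧ m + 1 ≤ f (T.vec r)} := by
  have := h0.commutator_filt_le hS hf m (commutator_mem_commutator (inv_mem hp) hu)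
  simpa [commutatorElement_def, mul_assoc] using this

theorem coef (hn : IsND x T) {k : ℕ} (hk : k ∈ S) : ∃ χ : G → F,
    (∀ u ∈ XS x {r | r ∈ S ∧ f (T.vec k) ≤ f (T.vec r)},
      ∀ v ∈ XS x {r | r ∈ S ∧ f (T.vec k) ≤ f (T.vec r)}, χ (u * v) = χ u + χ v) ∧
    (∀ a, χ (x k a) = a) ∧ ∀ u ∈ XS x (Nk T S f k), χ u = 0 := by
  classical
  have hk' := T.lt_iff.2 (hS.lt k hk)
  let χ : G → F := fun u => Classical.epsilon fun a => (x k a)⁻¹ * u ∈ XS x (Nk T S f k)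
  have key : ∀ u a, (x k a)⁻¹ * u ∈ XS x (Nk T S f k) → χ u = a := fun u a h => by
    have h1 : (x k (χ u))⁻¹ * u ∈ XS x (Nk T S f k) :=
      Classical.epsilon_spec (p := fun a => (x k a)⁻¹ * u ∈ XS x (Nk T S f k)) ⟨a, h⟩
    have h2 := mul_mem h (inv_mem h1)
    rw [show (x k a)⁻¹ * u * ((x k (χ u))⁻¹ * u)⁻¹ = (x k a)⁻¹ * x k (χ u) by group,
      ← h0.x_neg hk', h0.add k hk'] at h2
    linear_combination ndN h0 hS hf hn hk h2
  refine ⟨χ, fun u hu v hv => ?_, fun a => key _ a (by simp [one_mem]),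
    fun u hu => key u 0 (by rwa [h0.x_zero hk', inv_one, one_mul])⟩
  obtain ⟨a, ha⟩ := decN h0 hS hf hk hu
  obtain ⟨b, hb⟩ := decN h0 hS hf hk hv
  rw [key u a ha, key v b hb]
  refine key _ _ ?_
  have := mul_mem (Chev.conj_mem_of_mem_normalizer' (nrmN h0 hS hf k (mem_XS hk b)) ha) hb
  rw [← h0.add k hk']
  convert this using 1
  group

variable [CharP F 2] (H : SL T)
include H

/-- no contribution to the root `k` -/
theorem D0 {δ k : ℕ} (hδ : δ ∈ S) {n : G}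
    (hn : n ∈ XS x {r | r ∈ S ∧ f (T.vec k) ≤ f (T.vec r) + f (T.vec δ) ∧ ¬ Sm T r δ k}) (c : F) :
    n⁻¹ * (x δ c * n * (x δ c)⁻¹) ∈ XS x (Nk T S f k) := by
  have hd := hS.lt δ hδ
  have := comm_mem_of_closure (nrmN h0 hS hf k) (z := (x δ c)⁻¹) (by
      rintro _ ⟨r, hr, t, rfl⟩
      exact mem_XS hr.1 t) (by
      rintro _ ⟨r, hr, t, rfl⟩
      have hr' := hS.lt r hr.1
      rcases H.tri_cases hd hr' with p | p | ⟨k', p⟩
      · exact absurd p (hS.ne_neg hδ hr.1)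
      · have := (H.com h0 hd hr' p c t).inv_right.eq
        rw [inv_inv, this]
        simp
      · have h2 := H.sum h0 p.symm t c
        have h3 : (x δ c)⁻¹⁻¹ * (x r t)⁻¹ * (x δ c)⁻¹ * x r t = x k' (t * c) := by
          rw [inv_inv, h0.x_inv (T.lt_iff.2 hr'), h0.x_inv (T.lt_iff.2 hd), h2]
          simp only [mul_assoc,
            rp (H.com h0 p.hk p.hr (by rw [H.sm_kr p]; omega) _ _).eq,
            rp (H.com h0 p.hk p.hs (by rw [H.sm_ks p]; omega) _ _).eq,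
            rp (h0.x_one_sq (T.lt_iff.2 hr') _), rp (h0.x_one_sq (T.lt_iff.2 hd) _), one_mul]
        rw [h3]
        refine mem_XS (S := Nk T S f k) ⟨hS.closed δ hδ r hr.1 k' p.hk 1 1 one_pos one_pos
          (by simpa using p.eq), ?_, fun e => hr.2.2 (e ▸ p.symm)⟩ _
        have h4 := hr.2.1
        rw [p.eq, map_add]
        omega) (g := n) hn
  simpa [mul_assoc] using inv_mem this

/-- the contribution of `γ = k - δ` -/
theorem D1 {γ δ k : ℕ} (hγ : γ ∈ S) (hδ : δ ∈ S) (e : Sm T γ δ k) {u : G} {a : F}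
    (hu : (x γ a)⁻¹ * u ∈ XS x (Nk T S f γ)) (c : F) :
    (x k (a * c))⁻¹ * (u⁻¹ * (x δ c * u * (x δ c)⁻¹)) ∈ XS x (Nk T S f k) := by
  have hk : k ∈ S := hS.closed γ hγ δ hδ k e.hk 1 1 one_pos one_pos (by simpa using e.eq)
  have eφ : f (T.vec k) = f (T.vec γ) + f (T.vec δ) := by rw [e.eq, map_add]
  set u' := (x γ a)⁻¹ * u with hu'
  have h1 := D0 h0 hS hf H (k := k) hδ (XS_mono (by
    exact fun r hr => ⟨hr.1, by have := hr.2.1; omega,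
      fun p => hr.2.2 (p.symm.uniq' e.symm)⟩) hu) c
  have h2 := conjN h0 hS hf hk (XS_mono (fun r hr => hr.1) hu) (a * c)
  have h3 : x δ c * x γ a * (x δ c)⁻¹ = x γ a * x k (a * c) := by
    rw [h0.x_inv (T.lt_iff.2 e.hs), H.conj h0 e]
  convert mul_mem h2 h1 using 1
  calc _ = (x k (a * c))⁻¹ * (u'⁻¹ * (x γ a)⁻¹ * (x δ c * x γ a * (x δ c)⁻¹) *
        (x δ c * u' * (x δ c)⁻¹)) := by rw [hu']; group
    _ = _ := by rw [h3]; group

theorem D2 {δ k : ℕ} (hδ : δ ∈ S) (hk : k ∈ S) {u : G}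
    (hu : u ∈ XS x {r | r ∈ S ∧ f (T.vec k) ≤ f (T.vec r) + f (T.vec δ)}) :
    ∃ a, ∀ c, (x k (a * c))⁻¹ * (u⁻¹ * (x δ c * u * (x δ c)⁻¹)) ∈ XS x (Nk T S f k) := by
  by_cases h : ∃ γ ∈ S, Sm T γ δ k
  · obtain ⟨γ, hγ, e⟩ := h
    have eφ : f (T.vec k) = f (T.vec γ) + f (T.vec δ) := by rw [e.eq, map_add]
    obtain ⟨a, ha⟩ := decN h0 hS hf hγ (XS_mono (by
      exact fun r hr => ⟨hr.1, by have := hr.2; omega⟩) hu)
    exact ⟨a, D1 h0 hS hf H hγ hδ e ha⟩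
  · refine ⟨0, fun c => ?_⟩
    rw [zero_mul, h0.x_zero (T.lt_iff.2 (hS.lt k hk)), inv_one, one_mul]
    exact D0 h0 hS hf H hδ (XS_mono (by
      exact fun r hr => ⟨hr.1, hr.2, fun p => h ⟨r, hr.1, p⟩⟩) hu) c

/-- commuting with `x_δ(c) x_ε(d)` -/
theorem D3 (hn : IsND x T) {δ ε k : ℕ} (hδ : δ ∈ S) (hk : k ∈ S) {u : G} {c d p q : F}
    (h1 : (x k p)⁻¹ * (u⁻¹ * (x δ c * u * (x δ c)⁻¹)) ∈ XS x (Nk T S f k))
    (h2 : (x k q)⁻¹ * (u⁻¹ * (x ε d * u * (x ε d)⁻¹)) ∈ XS x (Nk T S f k))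
    (h : Commute u (x δ c * x ε d)) : p + q = 0 := by
  have hk' := T.lt_iff.2 (hS.lt k hk)
  have N := nrmN h0 hS hf k
  have a1 := Chev.conj_mem_of_mem_normalizer (N (mem_XS hδ c)) h2
  have a2 := conjN h0 hS hf hk (inv_mem (mem_XS hδ c)) q
  have a3 := mul_mem (Chev.conj_mem_of_mem_normalizer' (N (mem_XS hk q)) h1) (mul_mem a2 a1)
  have e : (x k q)⁻¹ * ((x k p)⁻¹ * (u⁻¹ * (x δ c * u * (x δ c)⁻¹))) * x k q *
      ((x k q)⁻¹ * ((x δ c)⁻¹⁻¹ * x k q * (x δ c)⁻¹) *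
        (x δ c * ((x k q)⁻¹ * (u⁻¹ * (x ε d * u * (x ε d)⁻¹))) * (x δ c)⁻¹)) =
      (x k p * x k q)⁻¹ * (u⁻¹ * (x δ c * x ε d * u * (x δ c * x ε d)⁻¹)) := by group
  rw [e, ← h.eq, h0.add k hk'] at a3
  exact ndN h0 hS hf hn hk (by simpa [mul_assoc] using a3)

end Cfsg.Agent.TwE.RigA
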